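import Mathlib
import Cfsg.Agent.Lib.Helper87.Kul.Defs

/-!
# The `p = 2` half of S4157 (Kulakoff): definitions (helper61, co-architect of helper87)
`E` is a normal four-group of the finite 2-group `G`, `C = centralizer E`, `z ∈ E` central, `E = {1, z, e, e z}`.
-/

set_option autoImplicit false

namespace Cfsg.Agent.Lib.Helper61.Kul2

open Subgroup

/-- coordinates of a normal four-group -/
structure Dat {G : Type*} [Group G] (E : Subgroup G) (z e : G) : Prop where
  zc : ∀ g : G, g * z = z * g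
  z1 : z ≠ 1
  zz : z * z = 1
  ee : e * e = 1
  e1 : e ≠ 1
  ez : e ≠ z
  mem : ∀ x, x ∈ E ↔ x = 1 ∨ x = z ∨ x = e ∨ x = e * z
  conj : ∀ g : G, g ∉ centralizer (E : Set G) → g * e * g⁻¹ = e * z

end Cfsg.Agent.Lib.Helper61.Kul2
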